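import Mathlib
import Cfsg.Agent.H73.One
import Cfsg.Agent.H749.Herm
import Cfsg.Agent.GpUn.Row
import Cfsg.Agent.S0281
import Cfsg.Agent.SignalizersComponents.SLQuasisimple

/-!
# Groups which are solvable or have one quasisimple normal subgroup with solvable quotient (helper501)

* `Q1 C` : `C` is solvable or `HasOne C`;
* `Q1.card_le` : at most one component;
* `Q1.of_normal` : passes to normal subgroups with solvable quotient; `Q1.of_ker` : and back;
* `q1_GL` : the general linear groups over finite fields; `q1_GU` : the general unitary groups.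
-/

set_option autoImplicit false

namespace Cfsg.Agent.H501.CompOne

open Cfsg Subgroup Cfsg.Agent.H73 Cfsg.Agent.SignalizersComponents.Components

/-- solvable, or a normal quasisimple subgroup with solvable quotient -/
def Q1 (C : Type*) [Group C] : Prop := Group.IsSolvable C ∨ HasOne C

theorem Q1.congr {C D : Type*} [Group C] [Group D] (e : C ≃* D) (h : Q1 C) : Q1 D := by
  rcases h with h | h
  · exact Or.inl (Group.isSolvable_of_surjective (f := e.toMonoidHom) e.surjective)
  · exact Or.inr (h.congr e)

theorem not_component_of_solvable {C : Type*} [Group C] (h : Group.IsSolvable C) (K : Subgroup C) :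
    ¬ IsComponent K := by
  intro hK
  have h1 := component_commutator_self hK
  have h2 : Group.IsSolvable ↥K := inferInstance
  have h3 : (⊥ : Subgroup C).Normal := inferInstance
  have h4 : Group.IsSolvable (C ⧸ (⊥ : Subgroup C)) :=
    Group.isSolvable_of_surjective (f := QuotientGroup.mk' (⊥ : Subgroup C)) (QuotientGroup.mk'_surjective _)
  have h5 := le_of_solvable h3 h4 h1
  exact component_ne_bot hK (le_bot_iff.1 h5)

/-- at most one component -/
theorem Q1.card_le {C : Type*} [Group C] (h : Q1 C) :
    {K : Subgroup C | IsComponent K}.Subsingleton := by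
  rcases h with h | h
  · intro K hK
    exact absurd hK (not_component_of_solvable h K)
  · obtain ⟨N, hn, hq, hs⟩ := h
    intro K hK L hL
    rw [Set.mem_ofPred_eq, HasOne.component_iff hn hq hs] at hK hL
    rw [hK, hL]

theorem Q1.ncard_le {C : Type*} [Group C] (h : Q1 C) :
    {K : Subgroup C | IsComponent K}.ncard ≤ 1 :=
  (@Set.ncard_le_one_iff_subsingleton _ _ h.card_le.finite.to_subtype).2 h.card_le

theorem HasOne.of_quasi {C : Type*} [Group C] (h : IsQuasisimple C) : HasOne C :=
  ⟨⊤, inferInstance, isQuasisimple_of_mulEquiv Subgroup.topEquiv.symm h, by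
    have h1 : Subsingleton (C ⧸ (⊤ : Subgroup C)) := QuotientGroup.subsingleton_quotient_top
    infer_instance⟩

/-- normal subgroups with solvable quotient -/
theorem Q1.of_normal {C : Type*} [Group C] {D : Subgroup C} (hD : D.Normal) (hs : Group.IsSolvable (C ⧸ D))
    (h : Q1 C) : Q1 ↥D := by
  rcases h with h | ⟨N, hn, hq, hN⟩
  · exact Or.inl inferInstance
  · right
    have hle : N ≤ D := le_of_solvable hD hs (component_commutator_self ⟨Subgroup.Normal.isSubnormal hn, hq⟩)
    refine ⟨N.subgroupOf D, hn.subgroupOf D, ?_, ?_⟩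
    · exact isQuasisimple_of_mulEquiv (Subgroup.subgroupOfEquivOfLe hle).symm hq
    · have hk : N.subgroupOf D = ((QuotientGroup.mk' N).comp D.subtype).ker := by
        ext x
        rw [MonoidHom.mem_ker, Subgroup.mem_subgroupOf]
        exact (QuotientGroup.eq_one_iff _).symm
      let f : ↥D ⧸ N.subgroupOf D →* C ⧸ N := QuotientGroup.map (N.subgroupOf D) N D.subtype (fun x hx => hx)
      refine Group.isSolvable_of_isSolvable_injective (f := f) ?_
      rw [injective_iff_map_eq_one]
      intro x
      induction x using QuotientGroup.induction_on with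
      | H x =>
        intro hx
        have h1 : ((x : C) : C ⧸ N) = 1 := hx
        rw [QuotientGroup.eq_one_iff] at h1 ⊢
        exact h1

/-- extensions by solvable groups -/
theorem Q1.of_ker {C D : Type*} [Group C] [Group D] (f : C →* D) (hs : Group.IsSolvable D) (h : Q1 ↥f.ker) :
    Q1 C := by
  have hs' : Group.IsSolvable (C ⧸ f.ker) :=
    Group.isSolvable_of_isSolvable_injective (f := (QuotientGroup.kerLift f)) (QuotientGroup.kerLift_injective f)
  rcases h with h | h
  · left
    exact Group.isSolvable_of_ker_le_range (f := f.ker.subtype) (g := f) (by rw [Subgroup.range_subtype])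
  · right
    obtain ⟨N, hn, hq, hN⟩ := h
    have hl := HasOne.layer_eq hn hq hN
    have hchar : (layer ↥f.ker).Characteristic := layer_characteristic _
    have hkn : f.ker.Normal := inferInstance
    have hnC : (N.map f.ker.subtype).Normal := by
      rw [← hl]
      infer_instance
    refine ⟨N.map f.ker.subtype, hnC, ?_, ?_⟩
    · exact isQuasisimple_of_mulEquiv (N.equivMapOfInjective f.ker.subtype (Subgroup.subtype_injective _)) hq
    · let g : C ⧸ (N.map f.ker.subtype) →* C ⧸ f.ker :=
        QuotientGroup.map _ _ (MonoidHom.id C) (fun x hx => (Subgroup.map_subtype_le N) hx)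
      have hg : Group.IsSolvable ↥g.ker := by
        let k : ↥f.ker ⧸ N →* C ⧸ (N.map f.ker.subtype) :=
          QuotientGroup.map _ _ f.ker.subtype (fun x hx => Subgroup.mem_map_of_mem _ hx)
        have hk : g.ker ≤ k.range := by
          intro x hx
          induction x using QuotientGroup.induction_on with
          | H x =>
            have h1 : ((x : C) : C ⧸ f.ker) = 1 := hx
            rw [QuotientGroup.eq_one_iff] at h1
            exact ⟨((⟨x, h1⟩ : ↥f.ker) : ↥f.ker ⧸ N), rfl⟩
        have h2 : Group.IsSolvable ↥k.range := Group.isSolvable_of_surjective (f := k.rangeRestrict) k.rangeRestrict_surjective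
        exact Group.isSolvable_of_isSolvable_injective (f := Subgroup.inclusion hk) (Subgroup.inclusion_injective hk)
      exact Group.isSolvable_of_ker_le_range (f := g.ker.subtype) (g := g) (by rw [Subgroup.range_subtype])

/-! ### The linear groups -/

section linear

variable {F : Type} [Field F] [Fintype F]

theorem q1_SL (ho : Odd (Fintype.card F)) (n : ℕ) : Q1 (Matrix.SpecialLinearGroup (Fin n) F) := by
  rcases Nat.lt_or_ge n 2 with hn | hn
  · left
    have h1 : Subsingleton (Matrix.SpecialLinearGroup (Fin n) F) := by
      have h2 : Subsingleton (Fin n) := Fin.subsingleton_iff_le_one.2 (by omega)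
      infer_instance
    infer_instance
  · rcases eq_or_lt_of_le hn with rfl | hn
    · by_cases h3 : Fintype.card F = 3
      · exact Or.inl (GTwoRows.isSolvable_sl_three h3)
      · refine Or.inr (HasOne.of_quasi ?_)
        refine Cfsg.Agent.SignalizersComponents.SLQuasisimple.isQuasisimple_two ?_
        rw [Nat.card_eq_fintype_card]
        have h1 : 1 < Fintype.card F := Fintype.one_lt_card
        obtain ⟨k, hk⟩ := ho
        omega
    · refine Or.inr (HasOne.of_quasi ?_)
      exact Cfsg.Agent.SignalizersComponents.SLQuasisimple.isQuasisimple_of_three_le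
        (by rw [Fintype.card_fin]; exact hn)

/-- the kernel of the determinant -/
def slKer (V : Type*) [AddCommGroup V] [Module F V] :
    SpecialLinearGroup F V ≃* ↥(LinearEquiv.det (R := F) (M := V)).ker where
  toFun g := ⟨g.toLinearEquiv, g.2⟩
  invFun g := ⟨g.1, g.2⟩
  left_inv _ := rfl
  right_inv _ := rfl
  map_mul' _ _ := rfl

/-- the general linear groups -/
theorem q1_GL (ho : Odd (Fintype.card F)) {V : Type*} [AddCommGroup V] [Module F V] [FiniteDimensional F V] :
    Q1 (V ≃ₗ[F] V) := by
  refine Q1.of_ker (LinearEquiv.det (R := F) (M := V)) inferInstance ?_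
  exact (q1_SL ho _).congr
    ((Matrix.SpecialLinearGroup.toLin_equiv (Module.finBasis F V)).trans (slKer V))

end linear

/-! ### The unitary groups -/

section unitary

variable {K : Type} [Field K] [Fintype K] {q : ℕ}

/-- There is a field with `q` elements if there is one with `q ^ 2` elements. -/
theorem exists_field (hF : Fintype.card K = q ^ 2) :
    ∃ (k : Type) (_ : Field k) (_ : Fintype k), Fintype.card k = q := by
  obtain ⟨p, k, hp, -, hk, hk0⟩ := Cfsg.Agent.LieClassical.HermBasic.exists_prime_pow hF
  have := Fact.mk hp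
  have : Finite (GaloisField p k) := inferInstance
  have h1 : Nat.card (GaloisField p k) = q := by rw [GaloisField.card p k hk0.ne', hk]
  let _ : Fintype (GaloisField p k) := Fintype.ofFinite _
  exact ⟨GaloisField p k, inferInstance, inferInstance, by rw [← Nat.card_eq_fintype_card, h1]⟩

theorem q1_SU (hK : Fintype.card K = q ^ 2) (ho : Odd q) (n : ℕ) : Q1 ↥(SU n K q) := by
  rcases Nat.lt_or_ge n 2 with hn | hn
  · left
    have h1 : Subsingleton (Matrix.SpecialLinearGroup (Fin n) K) := by
      have h2 : Subsingleton (Fin n) := Fin.subsingleton_iff_le_one.2 (by omega)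
      infer_instance
    infer_instance
  · rcases eq_or_lt_of_le hn with rfl | hn
    · obtain ⟨k, _, _, hk⟩ := exists_field hK
      obtain ⟨e⟩ := Cfsg.Agent.S0281.result hK hk
      exact (q1_SL (by rw [hk]; exact ho) 2).congr e.symm
    · exact Or.inr (HasOne.of_quasi (GpUn.quasi_SU hK hn (by rintro ⟨-, rfl⟩; exact absurd ho (by decide))))

open Cfsg.Agent.H749 Cfsg.Agent.ClassicalGeometry in
/-- the isometry groups of hermitian forms -/
theorem q1_Iso (hK : Fintype.card K = q ^ 2) (ho : Odd q) {σ : K →+* K} (hσ : ∀ x, σ x = x ^ q)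
    {W : Type*} [AddCommGroup W] [Module K W] [FiniteDimensional K W] {b : W → W → K} (h : HermF σ b) :
    Q1 ↥(Iso b) := by
  obtain ⟨j, hj⟩ := h.exists_iso (sigma_ne hK hσ) (sigma_sigma hK hσ) hσ rfl
  have hS : SimF j (hermForm _ K q) b 1 := ⟨one_ne_zero, fun x y => by rw [one_mul]; exact hj x y⟩
  refine Q1.of_ker ((LinearEquiv.det (R := K) (M := W)).comp (Iso b).subtype) inferInstance ?_
  have hdet : ∀ A : Matrix.GeneralLinearGroup (Fin (Module.finrank K W)) K,
      LinearEquiv.det (glHom j A) = 1 ↔ A.val.det = 1 := by
    intro A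
    rw [← Units.val_inj, LinearEquiv.coe_det, det_glHom, Units.val_one]
  let φ : ↥(SU (Module.finrank K W) K q) →* ↥((LinearEquiv.det (R := K) (M := W)).comp (Iso b).subtype).ker :=
    { toFun := fun A => ⟨⟨glHom j (Matrix.SpecialLinearGroup.toGL A.1), (mem_iff hS _).2 A.2⟩,
        (hdet _).2 A.1.2⟩
      map_one' := by
        apply Subtype.ext
        apply Subtype.ext
        show glHom j (Matrix.SpecialLinearGroup.toGL 1) = 1
        rw [map_one, map_one]
      map_mul' := fun A B => by
        apply Subtype.ext
        apply Subtype.ext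
        show glHom j (Matrix.SpecialLinearGroup.toGL (A.1 * B.1)) = glHom j _ * glHom j _
        rw [map_mul, map_mul] }
  refine (q1_SU hK ho _).congr (MulEquiv.ofBijective φ ⟨?_, ?_⟩)
  · intro A B hAB
    have h1 : glHom j (Matrix.SpecialLinearGroup.toGL A.1) = glHom j (Matrix.SpecialLinearGroup.toGL B.1) :=
      congrArg (fun x => x.1.1) hAB
    have h2 := glHom_injective j h1
    apply Subtype.ext
    apply Subtype.ext
    exact congrArg (fun x : Matrix.GeneralLinearGroup _ K => x.val) h2
  · rintro ⟨⟨g, hg⟩, hg1⟩
    obtain ⟨A, rfl⟩ := glHom_surjective j g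
    have hd : A.val.det = 1 := (hdet A).1 hg1
    have hA : (Matrix.SpecialLinearGroup.toGL ⟨A.val, hd⟩) = A := Units.ext rfl
    refine ⟨⟨⟨A.val, hd⟩, ?_⟩, ?_⟩
    · intro u v
      exact (mem_iff hS A).1 hg u v
    · apply Subtype.ext
      apply Subtype.ext
      show glHom j (Matrix.SpecialLinearGroup.toGL ⟨A.val, hd⟩) = glHom j A
      rw [hA]

end unitary

end Cfsg.Agent.H501.CompOne
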