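import Mathlib
import Cfsg.Agent.H501.QOne

/-!
# Centralisers of isometries `T` with `T² = -1` (helper501)

* `EForm σ e b` : `b` is nondegenerate, linear in the first variable, `b v u = e * σ (b u v)`;
* `Cn b T` : the isometries of `b` commuting with `T`;
* `q1_split` : `T² = μ²`, `μ * σ μ = -1` : the eigenspaces of `T` are totally isotropic and `Cn b T` is a general
  linear group;
* `q1_sq_neg` : `b` symmetric or alternating over a finite field of odd order, `T² = -1`.
-/

set_option autoImplicit false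
set_option linter.unusedSectionVars false
set_option linter.unusedVariables false

namespace Cfsg.Agent.H501.CompOne

open Cfsg Subgroup Cfsg.Agent.H749 Cfsg.Agent.H73 Cfsg.Agent.SignalizersComponents.Components

/-- a nondegenerate reflexive form, linear in the first variable -/
structure EForm {F V : Type*} [Field F] [AddCommGroup V] [Module F V] (σ : F →+* F) (e : F) (b : V → V → F) :
    Prop where
  add : ∀ u u' v, b (u + u') v = b u v + b u' v
  smul : ∀ (c : F) u v, b (c • u) v = c * b u v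
  symm : ∀ u v, b v u = e * σ (b u v)
  nd : ∀ u, (∀ v, b u v = 0) → u = 0

/-- the isometries of `b` commuting with `T` -/
def Cn {F V : Type*} [Field F] [AddCommGroup V] [Module F V] (b : V → V → F) (T : V ≃ₗ[F] V) :
    Subgroup (V ≃ₗ[F] V) :=
  Iso b ⊓ centralizer {T}

section

variable {F V : Type*} [Field F] [AddCommGroup V] [Module F V] {σ : F →+* F} {e : F} {b : V → V → F}
  {T : V ≃ₗ[F] V}

theorem mem_Cn {g : V ≃ₗ[F] V} :
    g ∈ Cn b T ↔ (∀ x y, b (g x) (g y) = b x y) ∧ ∀ x, g (T x) = T (g x) := by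
  rw [Cn, Subgroup.mem_inf, Subgroup.mem_centralizer_singleton_iff]
  refine and_congr Iff.rfl ⟨fun h x => (LinearEquiv.congr_fun h x), fun h => LinearEquiv.ext fun x => h x⟩

namespace EForm

theorem add_right (h : EForm σ e b) (u v v' : V) : b u (v + v') = b u v + b u v' := by
  rw [h.symm, h.add, map_add, mul_add, ← h.symm, ← h.symm]

theorem smul_right (h : EForm σ e b) (c : F) (u v : V) : b u (c • v) = σ c * b u v := by
  rw [h.symm, h.smul, map_mul, h.symm v u]
  ring

theorem e_ne (h : EForm σ e b) {u : V} (hu : u ≠ 0) : e ≠ 0 := by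
  rintro rfl
  exact hu (h.nd u fun v => by rw [h.symm, zero_mul])

theorem zero_left (h : EForm σ e b) (v : V) : b 0 v = 0 := by
  have h1 := h.smul 0 0 v
  rwa [zero_smul, zero_mul] at h1

theorem zero_right (h : EForm σ e b) (v : V) : b v 0 = 0 := by
  rw [h.symm, h.zero_left, map_zero, mul_zero]

theorem neg_left (h : EForm σ e b) (u v : V) : b (-u) v = - b u v := by
  have h1 := h.smul (-1) u v
  rwa [neg_one_smul, neg_one_mul] at h1

theorem neg_right (h : EForm σ e b) (u v : V) : b u (-v) = - b u v := by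
  have h1 := h.smul_right (-1) u v
  rwa [neg_one_smul, map_neg, map_one, neg_one_mul] at h1

theorem sub_left (h : EForm σ e b) (u u' v : V) : b (u - u') v = b u v - b u' v := by
  rw [sub_eq_add_neg, h.add, h.neg_left, ← sub_eq_add_neg]

theorem sub_right (h : EForm σ e b) (u v v' : V) : b u (v - v') = b u v - b u v' := by
  rw [sub_eq_add_neg, h.add_right, h.neg_right, ← sub_eq_add_neg]

theorem nd' (h : EForm σ e b) (v : V) (hv : ∀ u, b u v = 0) : v = 0 :=
  h.nd v fun u => by rw [h.symm, hv, map_zero, mul_zero]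

end EForm

/-- the eigenspace -/
def Eig (T : V ≃ₗ[F] V) (μ : F) : Submodule F V where
  carrier := {x | T x = μ • x}
  add_mem' := by
    intro x y hx hy
    show T (x + y) = μ • (x + y)
    rw [map_add, smul_add]
    exact congrArg₂ _ hx hy
  zero_mem' := by
    show T 0 = μ • 0
    rw [map_zero, smul_zero]
  smul_mem' := by
    intro c x hx
    show T (c • x) = μ • c • x
    rw [map_smul, smul_comm μ c x]
    exact congrArg _ hx

theorem mem_Eig {μ : F} {x : V} : x ∈ Eig T μ ↔ T x = μ • x := Iff.rfl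

end

section split

variable {F : Type} {V : Type*} [Field F] [Fintype F] [AddCommGroup V] [Module F V] [FiniteDimensional F V]
  {σ : F →+* F} {e : F} {b : V → V → F} {T : V ≃ₗ[F] V} {μ : F}

theorem eig_iso (h : EForm σ e b) (h2 : (2 : F) ≠ 0) (hT : ∀ x y, b (T x) (T y) = b x y) {ν : F}
    (hν : ν * σ ν = -1) {x y : V} (hx : x ∈ Eig T ν) (hy : y ∈ Eig T ν) : b x y = 0 := by
  have h1 := hT x y
  rw [mem_Eig.1 hx, mem_Eig.1 hy, h.smul, h.smul_right] at h1
  have h3 : 2 * b x y = 0 := by linear_combination -h1 + hν * b x y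
  exact (mul_eq_zero.1 h3).resolve_left h2

theorem exists_dec (h2 : (2 : F) ≠ 0) (hμ0 : μ ≠ 0) (hTT : ∀ x, T (T x) = (μ * μ) • x) (v : V) :
    ∃ x ∈ Eig T μ, ∃ y ∈ Eig T (-μ), x + y = v := by
  have h3 : (2 * μ) ≠ 0 := mul_ne_zero h2 hμ0
  refine ⟨(2 * μ)⁻¹ • (μ • v + T v), ?_, (2 * μ)⁻¹ • (μ • v - T v), ?_, ?_⟩
  · rw [mem_Eig, map_smul, map_add, map_smul, hTT, smul_comm μ]
    congr 1
    rw [smul_add, smul_smul, add_comm]
  · rw [mem_Eig, map_smul, map_sub, map_smul, hTT, smul_comm (-μ)]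
    congr 1
    rw [smul_sub, smul_smul, neg_smul, neg_mul, neg_smul, sub_neg_eq_add, add_comm, sub_eq_add_neg]
  · rw [← smul_add]
    have h4 : μ • v + T v + (μ • v - T v) = (2 * μ) • v := by
      rw [mul_smul, two_smul]
      abel
    rw [h4, smul_smul, inv_mul_cancel₀ h3, one_smul]

theorem inf_eig (h2 : (2 : F) ≠ 0) (hμ0 : μ ≠ 0) {x : V} (hx : x ∈ Eig T μ) (hy : x ∈ Eig T (-μ)) : x = 0 := by
  have h1 : μ • x = (-μ) • x := (mem_Eig.1 hx).symm.trans (mem_Eig.1 hy)
  have h3 : (2 * μ) • x = 0 := by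
    rw [mul_smul, two_smul]
    nth_rewrite 2 [h1]
    rw [neg_smul, add_neg_cancel]
  exact (smul_eq_zero.1 h3).resolve_left (mul_ne_zero h2 hμ0)

variable (h : EForm σ e b) (h2 : (2 : F) ≠ 0) (hT : ∀ x y, b (T x) (T y) = b x y)
  (hTT : ∀ x, T (T x) = (μ * μ) • x) (hμ : μ * σ μ = -1)

include h h2 hT hTT hμ

theorem eq_zero_of_perp {ν : F} (hν : ν = μ ∨ ν = -μ) {y : V} (hy : y ∈ Eig T (-ν))
    (hp : ∀ w ∈ Eig T ν, b w y = 0) : y = 0 := by
  have hμ0 : μ ≠ 0 := by
    rintro rfl
    rw [zero_mul] at hμ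
    exact one_ne_zero (neg_eq_zero.1 hμ.symm)
  have hn : (-ν) * σ (-ν) = -1 := by
    rw [map_neg]
    rcases hν with rfl | rfl
    · linear_combination hμ
    · rw [map_neg]
      linear_combination hμ
  apply h.nd' y
  intro u
  have hν0 : ν ≠ 0 := by
    rcases hν with rfl | rfl
    · exact hμ0
    · exact neg_ne_zero.2 hμ0
  obtain ⟨x, hx, z, hz, rfl⟩ := exists_dec (T := T) (μ := ν) h2 hν0 (by
    intro x
    rw [hTT]
    rcases hν with rfl | rfl
    · rfl
    · rw [neg_mul_neg]) u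
  rw [h.add, hp x hx, eig_iso h h2 hT hn hz hy, add_zero]

/-- the functionals -/
def bet (W : Submodule F V) (h : EForm σ e b) (y : V) : Module.Dual F ↥W where
  toFun w := b w y
  map_add' u v := h.add _ _ _
  map_smul' c u := h.smul _ _ _

omit h2 hT hTT hμ in
theorem card_dual (W : Submodule F V) : Nat.card (Module.Dual F ↥W) = Nat.card ↥W := by
  rw [Module.natCard_eq_pow_finrank (K := F) (V := Module.Dual F ↥W),
    Module.natCard_eq_pow_finrank (K := F) (V := ↥W), Subspace.dual_finrank_eq]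

theorem bet_injective {ν : F} (hν : ν = μ ∨ ν = -μ) :
    Function.Injective (fun y : ↥(Eig T (-ν)) => bet (Eig T ν) h y) := by
  intro y y' hyy
  have h1 : ∀ w ∈ Eig T ν, b w ((y : V) - y') = 0 := by
    intro w hw
    have h3 := LinearMap.congr_fun hyy ⟨w, hw⟩
    have h4 : b w y = b w y' := h3
    rw [h.sub_right, h4, sub_self]
  have h5 := eq_zero_of_perp h h2 hT hTT hμ hν ((Eig T (-ν)).sub_mem y.2 y'.2) h1
  exact Subtype.ext (sub_eq_zero.1 h5)

theorem surj (f : Module.Dual F ↥(Eig T μ)) : ∃ y : ↥(Eig T (-μ)), ∀ w : ↥(Eig T μ), b w y = f w := by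
  have hfin : Finite V := Module.finite_of_finite F
  have hfin' : ∀ W : Submodule F V, Finite (Module.Dual F ↥W) := fun W => Module.finite_of_finite F
  have i1 := bet_injective h h2 hT hTT hμ (Or.inl rfl)
  have i2 := bet_injective h h2 hT hTT hμ (ν := -μ) (Or.inr rfl)
  have c1 := Nat.card_le_card_of_injective _ i1
  have c2 := Nat.card_le_card_of_injective _ i2
  rw [card_dual h] at c1 c2
  rw [neg_neg] at c2
  have hb := (Function.Injective.bijective_of_nat_card_le i1 (by rw [card_dual h]; exact c2))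
  obtain ⟨y, hy⟩ := hb.2 f
  exact ⟨y, fun w => LinearMap.congr_fun hy w⟩

/-- extension of an automorphism of the eigenspace -/
theorem exists_adj (k : ↥(Eig T μ) ≃ₗ[F] ↥(Eig T μ)) :
    ∃ l : ↥(Eig T (-μ)) →ₗ[F] ↥(Eig T (-μ)), ∀ w y, b (k w) (l y) = b w y := by
  have h1 : ∀ y : ↥(Eig T (-μ)), ∃ z : ↥(Eig T (-μ)), ∀ w : ↥(Eig T μ), b (k w) z = b w y := by
    intro y
    obtain ⟨z, hz⟩ := surj h h2 hT hTT hμ ((bet (Eig T μ) h y).comp k.symm.toLinearMap)
    refine ⟨z, fun w => ?_⟩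
    rw [hz]
    show b (k.symm (k w)) y = b w y
    rw [k.symm_apply_apply]
  choose l hl using h1
  have huniq : ∀ z z' : ↥(Eig T (-μ)), (∀ w : ↥(Eig T μ), b (k w) z = b (k w) z') → z = z' := by
    intro z z' hz
    apply bet_injective h h2 hT hTT hμ (Or.inl rfl)
    apply LinearMap.ext
    intro w
    have h3 := hz (k.symm w)
    rw [k.apply_symm_apply] at h3
    exact h3
  refine ⟨{ toFun := l, map_add' := ?_, map_smul' := ?_ }, fun w y => hl y w⟩
  · intro y y'
    refine huniq _ _ fun w => ?_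
    rw [hl, Submodule.coe_add, Submodule.coe_add, h.add_right, h.add_right, hl, hl]
  · intro c y
    refine huniq _ _ fun w => ?_
    rw [hl, RingHom.id_apply, Submodule.coe_smul, Submodule.coe_smul, h.smul_right, h.smul_right, hl]

omit h h2 hT hTT hμ in
theorem Cn_eig {g : V ≃ₗ[F] V} (hg : g ∈ Cn b T) {ν : F} {x : V} (hx : x ∈ Eig T ν) : g x ∈ Eig T ν := by
  rw [mem_Eig, ← (mem_Cn.1 hg).2, mem_Eig.1 hx, map_smul]

omit h h2 hT hTT hμ in
/-- the restriction to an eigenspace -/
def res (b : V → V → F) (T : V ≃ₗ[F] V) (ν : F) : ↥(Cn b T) →* (↥(Eig T ν) ≃ₗ[F] ↥(Eig T ν)) where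
  toFun g :=
    { toFun := fun w => ⟨g.1 w, Cn_eig g.2 w.2⟩
      map_add' := fun u v => Subtype.ext (g.1.map_add u v)
      map_smul' := fun c u => Subtype.ext (g.1.map_smul c u)
      invFun := fun w => ⟨(g⁻¹).1 w, Cn_eig (g⁻¹).2 w.2⟩
      left_inv := fun w => Subtype.ext (g.1.symm_apply_apply w)
      right_inv := fun w => Subtype.ext (g.1.apply_symm_apply w) }
  map_one' := rfl
  map_mul' _ _ := rfl

theorem res_bijective : Function.Bijective (res b T μ) := by
  have hμ0 : μ ≠ 0 := by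
    rintro rfl
    rw [zero_mul] at hμ
    exact one_ne_zero (neg_eq_zero.1 hμ.symm)
  constructor
  · rw [injective_iff_map_eq_one]
    intro g hg
    have h1 : ∀ w ∈ Eig T μ, g.1 w = w := fun w hw =>
      congrArg Subtype.val (LinearEquiv.congr_fun hg ⟨w, hw⟩)
    apply Subtype.ext
    apply LinearEquiv.ext
    intro v
    obtain ⟨x, hx, y, hy, rfl⟩ := exists_dec h2 hμ0 hTT v
    have h3 : g.1 y = y := by
      have h4 := bet_injective h h2 hT hTT hμ (Or.inl rfl)
        (a₁ := ⟨g.1 y, Cn_eig g.2 hy⟩) (a₂ := ⟨y, hy⟩) (LinearMap.ext fun w => by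
          show b w (g.1 y) = b w y
          rw [← (mem_Cn.1 g.2).1 w y, h1 _ w.2])
      exact congrArg Subtype.val h4
    show g.1 (x + y) = x + y
    rw [map_add, h1 x hx, h3]
  · intro k
    obtain ⟨l, hl⟩ := exists_adj h h2 hT hTT hμ k
    have hfin : Finite V := Module.finite_of_finite F
    -- the projections
    have h3 : (2 * μ) ≠ 0 := mul_ne_zero h2 hμ0
    have hP : ∀ v, (2 * μ)⁻¹ • (μ • v + T v) ∈ Eig T μ := by
      intro v
      rw [mem_Eig, map_smul, map_add, map_smul, hTT, smul_comm μ]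
      congr 1
      rw [smul_add, smul_smul, add_comm]
    have hQ : ∀ v, (2 * μ)⁻¹ • (μ • v - T v) ∈ Eig T (-μ) := by
      intro v
      rw [mem_Eig, map_smul, map_sub, map_smul, hTT, smul_comm (-μ)]
      congr 1
      rw [smul_sub, smul_smul, neg_smul, neg_mul, neg_smul, sub_neg_eq_add, add_comm, sub_eq_add_neg]
    let P : V →ₗ[F] ↥(Eig T μ) :=
      LinearMap.codRestrict _ ((2 * μ)⁻¹ • (μ • LinearMap.id + T.toLinearMap)) hP
    let Q : V →ₗ[F] ↥(Eig T (-μ)) :=
      LinearMap.codRestrict _ ((2 * μ)⁻¹ • (μ • LinearMap.id - T.toLinearMap)) hQ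
    have hPQ : ∀ v, (P v : V) + Q v = v := by
      intro v
      show (2 * μ)⁻¹ • (μ • v + T v) + (2 * μ)⁻¹ • (μ • v - T v) = v
      rw [← smul_add]
      have h4 : μ • v + T v + (μ • v - T v) = (2 * μ) • v := by
        rw [mul_smul, two_smul]
        abel
      rw [h4, smul_smul, inv_mul_cancel₀ h3, one_smul]
    have hPu : ∀ x ∈ Eig T μ, ∀ y ∈ Eig T (-μ), P (x + y) = (x : V) ∧ (Q (x + y) : V) = y := by
      intro x hx y hy
      have h5 := hPQ (x + y)
      have h6 : (P (x + y) : V) - x = y - Q (x + y) := by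
        rw [sub_eq_sub_iff_add_eq_add, h5, add_comm]
      have h7 : (P (x + y) : V) - x = 0 :=
        inf_eig h2 hμ0 ((Eig T μ).sub_mem (P (x + y)).2 hx) (by
          rw [h6]; exact (Eig T (-μ)).sub_mem hy (Q (x + y)).2)
      refine ⟨sub_eq_zero.1 h7, ?_⟩
      rw [h7] at h6
      exact (sub_eq_zero.1 h6.symm).symm
    let G : V →ₗ[F] V := (Eig T μ).subtype ∘ₗ k.toLinearMap ∘ₗ P + (Eig T (-μ)).subtype ∘ₗ l ∘ₗ Q
    have hG : ∀ v, G v = k (P v) + l (Q v) := fun v => rfl
    have hxx : ∀ {ν : F}, ν * σ ν = -1 → ∀ x ∈ Eig T ν, ∀ y ∈ Eig T ν, b x y = 0 :=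
      fun hν x hx y hy => eig_iso h h2 hT hν hx hy
    have hμ' : (-μ) * σ (-μ) = -1 := by
      rw [map_neg]
      linear_combination hμ
    have hiso : ∀ u v, b (G u) (G v) = b u v := by
      intro u v
      have e1 : b u v = b ((P u : V) + Q u) (P v + Q v) := by rw [hPQ, hPQ]
      rw [e1, hG, hG, h.add, h.add, h.add_right, h.add_right, h.add_right, h.add_right,
        hxx hμ _ (k (P u)).2 _ (k (P v)).2, hxx hμ' _ (l (Q u)).2 _ (l (Q v)).2, hxx hμ _ (P u).2 _ (P v).2,
        hxx hμ' _ (Q u).2 _ (Q v).2, hl, h.symm (k (P v)) (l (Q u)), hl, ← h.symm]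
    have hinj : Function.Injective G := by
      rw [injective_iff_map_eq_zero]
      intro u hu
      apply h.nd
      intro v
      rw [← hiso, hu, h.zero_left]
    have hcomm : ∀ v, G (T v) = T (G v) := by
      intro v
      have e2 : T v = μ • (P v : V) + (-μ) • (Q v : V) := by
        nth_rewrite 1 [← hPQ v]
        rw [map_add, mem_Eig.1 (P v).2, mem_Eig.1 (Q v).2]
      have e3 := hPu (μ • (P v : V)) ((Eig T μ).smul_mem _ (P v).2) ((-μ) • (Q v : V))
        ((Eig T (-μ)).smul_mem _ (Q v).2)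
      rw [← e2] at e3
      have e4 : P (T v) = μ • P v := Subtype.ext e3.1
      have e5 : Q (T v) = (-μ) • Q v := Subtype.ext e3.2
      rw [hG, hG, e4, e5, map_smul, map_smul, map_add, mem_Eig.1 (k (P v)).2, mem_Eig.1 (l (Q v)).2]
      rfl
    have hmem : LinearEquiv.ofInjectiveEndo G hinj ∈ Cn b T := mem_Cn.2 ⟨hiso, hcomm⟩
    refine ⟨⟨_, hmem⟩, ?_⟩
    apply LinearEquiv.ext
    intro w
    apply Subtype.ext
    show G w = k w
    have e6 := hPu w w.2 0 (Submodule.zero_mem _)
    rw [add_zero] at e6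
    have e7 : P (w : V) = w := Subtype.ext e6.1
    have e8 : Q (w : V) = 0 := Subtype.ext e6.2
    rw [hG, e7, e8, map_zero, Submodule.coe_zero, add_zero]

/-- **The eigenspaces are totally isotropic.** -/
theorem q1_split (ho : Odd (Fintype.card F)) : Q1 ↥(Cn b T) :=
  (q1_GL ho).congr (MulEquiv.ofBijective _ (res_bijective h h2 hT hTT hμ)).symm

end split

/-! ### The field generated by `T` -/

section field

variable {F : Type} {V : Type*} [Field F] [AddCommGroup V] [Module F V] {c : F} {T : V ≃ₗ[F] V}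

/-- `V` as a space over `F(√c)` -/
@[reducible]
def kmod (hTT : ∀ x, T (T x) = c • x) : Module (QuadraticAlgebra F c 0) V where
  smul z v := z.re • v + z.im • T v
  one_smul v := by
    show (1 : QuadraticAlgebra F c 0).re • v + (1 : QuadraticAlgebra F c 0).im • T v = v
    rw [QuadraticAlgebra.re_one, QuadraticAlgebra.im_one, one_smul, zero_smul, add_zero]
  mul_smul z w v := by
    show (z * w).re • v + (z * w).im • T v = z.re • (w.re • v + w.im • T v) + z.im • T (w.re • v + w.im • T v)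
    rw [QuadraticAlgebra.re_mul, QuadraticAlgebra.im_mul, map_add, map_smul, map_smul, hTT]
    module
  smul_zero z := by
    show z.re • (0 : V) + z.im • T 0 = 0
    rw [map_zero, smul_zero, smul_zero, add_zero]
  smul_add z u v := by
    show z.re • (u + v) + z.im • T (u + v) = z.re • u + z.im • T u + (z.re • v + z.im • T v)
    rw [map_add]
    module
  add_smul z w v := by
    show (z + w).re • v + (z + w).im • T v = z.re • v + z.im • T v + (w.re • v + w.im • T v)
    rw [QuadraticAlgebra.re_add, QuadraticAlgebra.im_add]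
    module
  zero_smul v := by
    show (0 : QuadraticAlgebra F c 0).re • v + (0 : QuadraticAlgebra F c 0).im • T v = 0
    rw [QuadraticAlgebra.re_zero, QuadraticAlgebra.im_zero, zero_smul, zero_smul, add_zero]

theorem kmod_smul (hTT : ∀ x, T (T x) = c • x) (z : QuadraticAlgebra F c 0) (v : V) :
    letI := kmod hTT
    z • v = z.re • v + z.im • T v := rfl

/-- `F(√c)`-linear maps -/
def toK (hTT : ∀ x, T (T x) = c • x) {g : V ≃ₗ[F] V} (hg : ∀ x, g (T x) = T (g x)) :
    letI := kmod hTT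
    V ≃ₗ[QuadraticAlgebra F c 0] V :=
  letI := kmod hTT
  { toFun := g
    map_add' := g.map_add
    map_smul' := fun z v => by
      show g (z.re • v + z.im • T v) = z.re • g v + z.im • T (g v)
      rw [map_add, map_smul, map_smul, hg]
    invFun := g.symm
    left_inv := g.symm_apply_apply
    right_inv := g.apply_symm_apply }

/-- and back -/
def ofK (hTT : ∀ x, T (T x) = c • x)
    (g : letI := kmod hTT; V ≃ₗ[QuadraticAlgebra F c 0] V) : V ≃ₗ[F] V :=
  letI := kmod hTT
  { toFun := g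
    map_add' := g.map_add
    map_smul' := fun a v => by
      have h1 := g.map_smul (⟨a, 0⟩ : QuadraticAlgebra F c 0) v
      have h2 : ∀ u : V, (⟨a, 0⟩ : QuadraticAlgebra F c 0) • u = a • u := fun u => by
        show a • u + (0 : F) • T u = a • u
        rw [zero_smul, add_zero]
      rw [h2, h2] at h1
      exact h1
    invFun := g.symm
    left_inv := g.symm_apply_apply
    right_inv := g.apply_symm_apply }

theorem ofK_T (hTT : ∀ x, T (T x) = c • x)
    (g : letI := kmod hTT; V ≃ₗ[QuadraticAlgebra F c 0] V) (v : V) : ofK hTT g (T v) = T (ofK hTT g v) := by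
  letI := kmod hTT
  have h1 := g.map_smul (⟨0, 1⟩ : QuadraticAlgebra F c 0) v
  have h2 : ∀ u : V, (⟨0, 1⟩ : QuadraticAlgebra F c 0) • u = T u := fun u => by
    show (0 : F) • u + (1 : F) • T u = T u
    rw [zero_smul, one_smul, zero_add]
  rw [h2, h2] at h1
  exact h1

/-- the centraliser in the general linear group -/
def centK (hTT : ∀ x, T (T x) = c • x) :
    letI := kmod hTT
    (V ≃ₗ[QuadraticAlgebra F c 0] V) ≃* ↥(centralizer ({T} : Set (V ≃ₗ[F] V))) :=
  letI := kmod hTT
  { toFun := fun g => ⟨ofK hTT g, by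
      rw [Subgroup.mem_centralizer_singleton_iff]
      exact LinearEquiv.ext fun v => ofK_T hTT g v⟩
    invFun := fun g => toK hTT (g := g.1) (fun x =>
      LinearEquiv.congr_fun (Subgroup.mem_centralizer_singleton_iff.1 g.2) x)
    left_inv := fun _ => rfl
    right_inv := fun _ => rfl
    map_mul' := fun _ _ => rfl }

variable [Fintype F]

instance : Fintype (QuadraticAlgebra F c 0) := Fintype.ofEquiv (F × F) (QuadraticAlgebra.equivProd c 0).symm

theorem card_K : Fintype.card (QuadraticAlgebra F c 0) = Fintype.card F ^ 2 := by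
  rw [Fintype.card_congr (QuadraticAlgebra.equivProd c 0), Fintype.card_prod, sq]

theorem fact_of_nonsquare (hc : ¬ IsSquare c) : Fact (∀ r : F, r ^ 2 ≠ c + 0 * r) :=
  ⟨fun r hr => hc ⟨r, by rw [zero_mul, add_zero] at hr; rw [← hr, sq]⟩⟩

/-- **The centraliser of `T`, `T²` a non-square, in the general linear group.** -/
theorem q1_centGL [FiniteDimensional F V] (ho : Odd (Fintype.card F)) (hc : ¬ IsSquare c)
    (hTT : ∀ x, T (T x) = c • x) : Q1 ↥(centralizer ({T} : Set (V ≃ₗ[F] V))) := by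
  have hf := fact_of_nonsquare hc
  letI := kmod hTT
  have hfin : Finite V := Module.finite_of_finite F
  have hfd : FiniteDimensional (QuadraticAlgebra F c 0) V := Module.Finite.of_finite
  refine (q1_GL (F := QuadraticAlgebra F c 0) (V := V) ?_).congr (centK hTT)
  rw [card_K]
  exact ho.pow

theorem sigma_apply (hc : ¬ IsSquare c)
    (σ : letI := fact_of_nonsquare hc; QuadraticAlgebra F c 0 →+* QuadraticAlgebra F c 0)
    (hσ : ∀ x, σ x = x ^ Fintype.card F) (z : QuadraticAlgebra F c 0) : σ z = ⟨z.re, -z.im⟩ := by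
  have hf := fact_of_nonsquare hc
  have h1 : ∀ r : F, σ ⟨r, 0⟩ = ⟨r, 0⟩ := by
    intro r
    have h2 : (⟨r, 0⟩ : QuadraticAlgebra F c 0) = algebraMap F _ r := rfl
    rw [hσ, h2, ← map_pow, FiniteField.pow_card]
  have hω : ∀ z : QuadraticAlgebra F c 0, z = ⟨z.re, 0⟩ + ⟨z.im, 0⟩ * ⟨0, 1⟩ := by
    intro z
    ext <;> simp
  have h3 : (σ ⟨0, 1⟩ - ⟨0, 1⟩) * (σ ⟨0, 1⟩ + ⟨0, 1⟩) = 0 := by
    have h4 : (⟨0, 1⟩ : QuadraticAlgebra F c 0) * ⟨0, 1⟩ = ⟨c, 0⟩ := by
      ext <;> simp
    have h5 : σ ⟨0, 1⟩ * σ ⟨0, 1⟩ = ⟨c, 0⟩ := by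
      rw [← map_mul, h4, h1]
    linear_combination h5 - h4
  have h6 : σ ⟨0, 1⟩ = -⟨0, 1⟩ := by
    rcases mul_eq_zero.1 h3 with h | h
    · exfalso
      apply sigma_ne (card_K (F := F) (c := c)) hσ
      apply RingHom.ext
      intro z
      rw [RingHom.id_apply, hω z, map_add, map_mul, h1, h1, sub_eq_zero.1 h]
    · exact eq_neg_of_add_eq_zero_left h
  have h7 : σ z = σ (⟨z.re, 0⟩ + ⟨z.im, 0⟩ * ⟨0, 1⟩) := by rw [← hω z]
  rw [h7, map_add, map_mul, h1, h1, h6]
  ext <;> simp

/-- the hermitian form -/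
def hk (b : V → V → F) (T : V ≃ₗ[F] V) (ε : QuadraticAlgebra F c 0) (x y : V) : QuadraticAlgebra F c 0 :=
  ε * ⟨b x y, - b (T x) y⟩

end field

section main

variable {F : Type} {V : Type*} [Field F] [Fintype F] [AddCommGroup V] [Module F V] {e : F} {b : V → V → F}
  {T : V ≃ₗ[F] V}

theorem adj (h : EForm (RingHom.id F) e b) (hT : ∀ x y, b (T x) (T y) = b x y) (hTT : ∀ x, T (T x) = (-1 : F) • x)
    (u v : V) : b u (T v) = - b (T u) v := by
  have h1 := hT u (T v)
  rw [hTT, neg_one_smul, h.neg_right] at h1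
  exact h1.symm

theorem hermF_hk (h : EForm (RingHom.id F) e b) (hT : ∀ x y, b (T x) (T y) = b x y)
    (hTT : ∀ x, T (T x) = (-1 : F) • x) (hc : ¬ IsSquare (-1 : F)) {ε : QuadraticAlgebra F (-1 : F) 0}
    (hε0 : ε ≠ 0)
    (σ : letI := fact_of_nonsquare hc; QuadraticAlgebra F (-1 : F) 0 →+* QuadraticAlgebra F (-1 : F) 0)
    (hσ : ∀ x, σ x = x ^ Fintype.card F) (hε : σ ε = ⟨e, 0⟩ * ε) :
    letI := fact_of_nonsquare hc
    letI := kmod hTT
    HermF σ (hk b T ε) := by
  letI := fact_of_nonsquare hc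
  letI := kmod hTT
  have hs : ∀ (z : QuadraticAlgebra F (-1 : F) 0) (v : V), z • v = z.re • v + z.im • T v := fun z v => rfl
  refine ⟨?_, ?_, ?_, ?_⟩
  · intro u u' v
    simp only [hk]
    rw [← mul_add]
    congr 1
    rw [map_add, h.add, h.add]
    ext
    · rfl
    · simp only [QuadraticAlgebra.im_add]
      ring
  · intro z u v
    simp only [hk]
    rw [mul_left_comm]
    congr 1
    rw [hs, h.add, h.smul, h.smul, map_add, map_smul, map_smul, h.add, h.smul, h.smul, hTT, neg_one_smul,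
      h.neg_left]
    ext
    · simp only [QuadraticAlgebra.re_mul]
      ring
    · simp only [QuadraticAlgebra.im_mul]
      ring
  · intro u v
    simp only [hk]
    rw [map_mul, hε, sigma_apply hc σ hσ ⟨b u v, _⟩, mul_assoc, mul_left_comm]
    congr 1
    have h1 := h.symm u v
    have h2 := h.symm u (T v)
    rw [RingHom.id_apply] at h1 h2
    rw [h1, h2, adj h hT hTT]
    ext
    · simp only [QuadraticAlgebra.re_mul]
      ring
    · simp only [QuadraticAlgebra.im_mul]
      ring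
  · intro u hu
    apply h.nd
    intro v
    have h1 := hu v
    simp only [hk] at h1
    exact congrArg QuadraticAlgebra.re ((mul_eq_zero.1 h1).resolve_left hε0)

theorem mem_iso_hk (hTT : ∀ x, T (T x) = (-1 : F) • x) (hc : ¬ IsSquare (-1 : F))
    {ε : QuadraticAlgebra F (-1 : F) 0} (hε0 : ε ≠ 0)
    (g : letI := kmod hTT; V ≃ₗ[QuadraticAlgebra F (-1 : F) 0] V) :
    letI := fact_of_nonsquare hc
    letI := kmod hTT
    g ∈ Iso (hk b T ε) ↔ ofK hTT g ∈ Cn b T := by
  letI := fact_of_nonsquare hc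
  letI := kmod hTT
  rw [mem_Cn]
  constructor
  · intro hg
    refine ⟨fun x y => ?_, ofK_T hTT g⟩
    have h1 := hg x y
    simp only [hk] at h1
    exact congrArg QuadraticAlgebra.re (mul_left_cancel₀ hε0 h1)
  · rintro ⟨h1, h2⟩ x y
    simp only [hk]
    have h3 : ∀ v, g v = ofK hTT g v := fun v => rfl
    rw [h3, h3, ← h2, h1, h1]

/-- **The centraliser of `T`, `T² = -1`, `-1` a non-square.** -/
theorem q1_nonsplit [FiniteDimensional F V] (ho : Odd (Fintype.card F)) (h : EForm (RingHom.id F) e b)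
    (he : e = 1 ∨ e = -1) (hT : ∀ x y, b (T x) (T y) = b x y) (hTT : ∀ x, T (T x) = (-1 : F) • x)
    (hc : ¬ IsSquare (-1 : F)) : Q1 ↥(Cn b T) := by
  letI := fact_of_nonsquare hc
  letI := kmod hTT
  have hfin : Finite V := Module.finite_of_finite F
  have hfd : FiniteDimensional (QuadraticAlgebra F (-1 : F) 0) V := Module.Finite.of_finite
  obtain ⟨σ, hσ⟩ := Cfsg.Agent.ClassicalGeometry.GUBasic.exists_powHom (card_K (F := F) (c := (-1 : F)))
  obtain ⟨ε, hε0, hε⟩ : ∃ ε : QuadraticAlgebra F (-1 : F) 0, ε ≠ 0 ∧ σ ε = ⟨e, 0⟩ * ε := by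
    rcases he with rfl | rfl
    · refine ⟨1, one_ne_zero, ?_⟩
      rw [map_one, mul_one]
      rfl
    · refine ⟨⟨0, 1⟩, fun h0 => one_ne_zero (congrArg QuadraticAlgebra.im h0), ?_⟩
      rw [sigma_apply hc σ hσ]
      ext <;> simp
  have hH := hermF_hk h hT hTT hc hε0 σ hσ hε
  refine (q1_Iso (card_K (F := F) (c := (-1 : F))) ho hσ hH).congr ?_
  exact
    { toFun := fun g => ⟨ofK hTT g.1, (mem_iso_hk hTT hc hε0 g.1).1 g.2⟩
      invFun := fun g => ⟨toK hTT (mem_Cn.1 g.2).2, (mem_iso_hk hTT hc hε0 _).2 g.2⟩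
      left_inv := fun _ => rfl
      right_inv := fun _ => rfl
      map_mul' := fun _ _ => rfl }

/-- **The centraliser of `T`, `T² = -1`, in the isometry group of a symmetric or alternating form.** -/
theorem q1_of_eForm [FiniteDimensional F V] (ho : Odd (Fintype.card F)) (h : EForm (RingHom.id F) e b)
    (he : e = 1 ∨ e = -1) (hT : ∀ x y, b (T x) (T y) = b x y) (hTT : ∀ x, T (T x) = -x) : Q1 ↥(Cn b T) := by
  by_cases hc : IsSquare (-1 : F)
  · obtain ⟨i, hi⟩ := hc
    refine q1_split (μ := i) h ?_ hT (fun x => ?_) ?_ ho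
    · exact Cfsg.Agent.SignalizersComponents.SLQuasisimple.two_ne_zero_of_odd ho
    · rw [hTT, ← hi, neg_one_smul]
    · rw [RingHom.id_apply, ← hi]
  · exact q1_nonsplit ho h he hT (fun x => by rw [hTT, neg_one_smul]) hc

theorem eForm_of_symm {B : LinearMap.BilinForm F V} (hB : B.Nondegenerate) (hs : B.IsSymm) :
    EForm (RingHom.id F) 1 (fun x y => B x y) where
  add u u' v := by rw [map_add, LinearMap.add_apply]
  smul c u v := by rw [map_smul, LinearMap.smul_apply, smul_eq_mul]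
  symm u v := by rw [RingHom.id_apply, one_mul, hs.eq]
  nd u hu := hB.1 u hu

theorem eForm_of_alt {B : LinearMap.BilinForm F V} (hB : B.Nondegenerate) (hs : B.IsAlt) :
    EForm (RingHom.id F) (-1) (fun x y => B x y) where
  add u u' v := by rw [map_add, LinearMap.add_apply]
  smul c u v := by rw [map_smul, LinearMap.smul_apply, smul_eq_mul]
  symm u v := by rw [RingHom.id_apply, neg_one_mul, hs.neg_eq]
  nd u hu := hB.1 u hu

/-- **The centraliser of `T`, `T² = -1`, in the isometry group of a symmetric or alternating bilinear form.** -/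
theorem q1_sq_neg [FiniteDimensional F V] (ho : Odd (Fintype.card F)) {B : LinearMap.BilinForm F V}
    (hB : B.Nondegenerate) (he : B.IsSymm ∨ B.IsAlt) (hT : ∀ x y, B (T x) (T y) = B x y)
    (hTT : ∀ x, T (T x) = -x) : Q1 ↥(Cn (fun x y => B x y) T) := by
  rcases he with he | he
  · exact q1_of_eForm ho (eForm_of_symm hB he) (Or.inl rfl) hT hTT
  · exact q1_of_eForm ho (eForm_of_alt hB he) (Or.inr rfl) hT hTT

/-- the form used for the rows: perfect subgroups of the centraliser -/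
theorem Q1.perfect {G : Type*} [Group G] {A : Subgroup G} (h : Q1 ↥A) :
    (∀ P : Subgroup G, P ≤ A → ⁅P, P⁆ = P → P = ⊥) ∨
      ∃ S : Subgroup G, S ≤ A ∧ (∀ a ∈ A, ∀ s ∈ S, a * s * a⁻¹ ∈ S) ∧ IsQuasisimple ↥S ∧
        ∀ P : Subgroup G, P ≤ A → ⁅P, P⁆ = P → P ≤ S := by
  have hsub : ∀ P : Subgroup G, P ≤ A → ⁅P, P⁆ = P → ⁅P.subgroupOf A, P.subgroupOf A⁆ = P.subgroupOf A := by
    intro P hP hPP
    apply Subgroup.map_injective (Subgroup.subtype_injective A)
    rw [Subgroup.map_commutator, Subgroup.map_subgroupOf_eq_of_le hP, hPP]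
  rcases h with h | ⟨N, hn, hq, hs⟩
  · left
    intro P hP hPP
    have h3 : (⊥ : Subgroup ↥A).Normal := inferInstance
    have h4 : Group.IsSolvable (↥A ⧸ (⊥ : Subgroup ↥A)) :=
      Group.isSolvable_of_surjective (f := QuotientGroup.mk' (⊥ : Subgroup ↥A)) (QuotientGroup.mk'_surjective _)
    have h5 := le_of_solvable h3 h4 (hsub P hP hPP)
    rw [eq_bot_iff]
    intro x hx
    have h6 : (⟨x, hP hx⟩ : ↥A) ∈ (⊥ : Subgroup ↥A) := h5 (Subgroup.mem_subgroupOf.2 hx)
    rw [Subgroup.mem_bot] at h6 ⊢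
    exact congrArg Subtype.val h6
  · right
    refine ⟨N.map A.subtype, Subgroup.map_subtype_le N, ?_, ?_, ?_⟩
    · rintro a ha _ ⟨s, hs', rfl⟩
      exact ⟨⟨a, ha⟩ * s * ⟨a, ha⟩⁻¹, hn.conj_mem s hs' ⟨a, ha⟩, rfl⟩
    · exact isQuasisimple_of_mulEquiv (N.equivMapOfInjective A.subtype (Subgroup.subtype_injective _)) hq
    · intro P hP hPP x hx
      have h5 := le_of_solvable hn hs (hsub P hP hPP)
      exact ⟨⟨x, hP hx⟩, h5 (Subgroup.mem_subgroupOf.2 hx), rfl⟩

end main

end Cfsg.Agent.H501.CompOne
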